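import Cfsg.Agent.H376.Cyc.Def
import Cfsg.Agent.H378.ExcNear
import Cfsg.Agent.S2378

/-!
# S3441: `NA` for `E₆(q)`, `E₇(q)` (helper75)

* `cyc` : Sylow `r`-subgroups of a Chevalley group, `r` prime to `q` and to `|W|`, one degree divisible by the order of `q`;
* `na_E6`, `na_E7`.
-/

set_option autoImplicit false

namespace Cfsg.Agent.H75.Cyc

open Cfsg Cfsg.Lie Cfsg.Agent.H378.ExcAdj Cfsg.Agent.H376.Cyc
open Cfsg.Agent.H378.ExcNear

universe u

theorem od_eq_orderOf {q r : ℕ} : od q r = orderOf ((q : ℕ) : ZMod r) := by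
  rfl

/-- a pair of commuting elements of distinct prime orders -/
theorem exists_of_adj {G : Type*} [Group G] {r s : ℕ} (h : H94.PG.Adj G r s) : ∃ x : G, orderOf x = s * r := by
  obtain ⟨hr, hs, hne, x, y, hx, hy, hc⟩ := h
  refine ⟨y * x, ?_⟩
  rw [hc.symm.orderOf_mul_eq_mul_orderOf_of_coprime (by rw [hx, hy]; exact (Nat.coprime_primes hs hr).2 hne.symm), hx, hy]

/-- `Fin 1 → A` -/
def funUnique (A : Type*) [Group A] (n : ℕ) (hn : n = 1) : (Fin n → A) ≃* A := by
  subst hn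
  exact MulEquiv.funUnique (Fin 1) A

theorem cyc {F : Type u} [Field F] [Finite F] (c : ChevalleyDatum × List ℕ)
    (hc : c ∈ [(Cfsg.Lie.chevG2, [2, 6]), (Cfsg.Lie.chevB2, [2, 4]), (Cfsg.Lie.chevD4, [2, 4, 4, 6]), (Cfsg.Lie.chevF4, [2, 6, 8, 12]),
      (Cfsg.Lie.chevE6, [2, 5, 6, 8, 9, 12]), (Cfsg.Lie.chevE7, [2, 6, 8, 10, 12, 14, 18]), (Cfsg.Lie.chevE8, [2, 8, 12, 14, 18, 20, 24, 30])])
    {r : ℕ} (hr : r.Prime) (hrq : ¬ r ∣ Nat.card F) (hrW : ¬ r ∣ c.2.prod) (hrG : r ∣ Nat.card ↥(c.1.group F))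
    (h1 : (c.2.filter (fun e => orderOf ((Nat.card F : ℕ) : ZMod r) ∣ e)).length = 1) (P : Sylow r ↥(c.1.group F)) :
    IsCyclic ↥P := by
  have := Fact.mk hr
  have : Fintype F := Fintype.ofFinite F
  obtain ⟨e⟩ := Cfsg.Agent.S2378.result (F := F) (q := Nat.card F) Nat.card_eq_fintype_card.symm c hc r hrq hrW hrG P
  exact (e.trans (funUnique _ _ h1)).isCyclic.2 inferInstance

theorem not_dvd_of_od' {q r m : ℕ} (hr : r.Prime) (h : od q r = m) (hm : 0 < m) : ¬ r ∣ q := by
  intro h1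
  have := Fact.mk hr
  have h0 : ((q : ℕ) : ZMod r) = 0 := (ZMod.natCast_eq_zero_iff q r).2 h1
  rw [od, h0, orderOf_eq_zero_iff'.2] at h
  · omega
  · intro n hn
    rw [zero_pow hn.ne']
    exact zero_ne_one

/-- the primes for which `q` has large order -/
theorem cyc_of_od {F : Type u} [Field F] [Finite F] (c : ChevalleyDatum × List ℕ)
    (hc : c ∈ [(Cfsg.Lie.chevG2, [2, 6]), (Cfsg.Lie.chevB2, [2, 4]), (Cfsg.Lie.chevD4, [2, 4, 4, 6]), (Cfsg.Lie.chevF4, [2, 6, 8, 12]),
      (Cfsg.Lie.chevE6, [2, 5, 6, 8, 9, 12]), (Cfsg.Lie.chevE7, [2, 6, 8, 10, 12, 14, 18]), (Cfsg.Lie.chevE8, [2, 8, 12, 14, 18, 20, 24, 30])])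
    {r m : ℕ} (hr : r.Prime) (h : od (Nat.card F) r = m) (h0 : 0 < m) (hrG : r ∣ Nat.card ↥(c.1.group F))
    (hW : ∀ t : ℕ, t.Prime → t ∣ c.2.prod → t ≤ m)
    (h1 : (c.2.filter (fun e => m ∣ e)).length = 1) (P : Sylow r ↥(c.1.group F)) : IsCyclic ↥P := by
  refine cyc c hc hr (not_dvd_of_od' hr h h0) (fun h2 => ?_) hrG ?_ P
  · have h3 := hW r hr h2
    have h4 := Nat.le_of_dvd (by have := hr.two_le; omega) (mod_of_od hr h h0)
    have := hr.two_le
    omega
  · rw [← h] at h1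
    exact h1

/-- `E₆(q)` -/
theorem cyc_E6 {F : Type u} [Field F] [Finite F] {r : ℕ} (hr : r.Prime) (hd : r ∣ Nat.card ↥(chevE6.group F))
    (h : od (Nat.card F) r = 8 ∨ od (Nat.card F) r = 9 ∨ od (Nat.card F) r = 12) (P : Sylow r ↥(chevE6.group F)) :
    IsCyclic ↥P := by
  have hW : ∀ t : ℕ, t.Prime → t ∣ (2 * (5 * (6 * (8 * (9 * (12 * 1)))))) → t ≤ 5 := by
    intro t ht h
    simp only [ht.dvd_mul] at h
    rcases h with h | h | h | h | h | h | h
    · exact (Nat.le_of_dvd (by norm_num) h).trans (by norm_num)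
    · exact Nat.le_of_dvd (by norm_num) h
    · have := (ht.dvd_mul (m := 2) (n := 3)).1 (by simpa using h)
      rcases this with h | h <;> exact (Nat.le_of_dvd (by norm_num) h).trans (by norm_num)
    · exact (Nat.le_of_dvd (by norm_num) (ht.dvd_of_dvd_pow (show t ∣ 2 ^ 3 from h))).trans (by norm_num)
    · exact (Nat.le_of_dvd (by norm_num) (ht.dvd_of_dvd_pow (show t ∣ 3 ^ 2 from h))).trans (by norm_num)
    · have := (ht.dvd_mul (m := 4) (n := 3)).1 (by simpa using h)
      rcases this with h | h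
      · exact (Nat.le_of_dvd (by norm_num) h).trans (by norm_num)
      · exact (Nat.le_of_dvd (by norm_num) h).trans (by norm_num)
    · exact absurd (Nat.dvd_one.1 h) ht.one_lt.ne'
  rcases h with h | h | h
  · exact cyc_of_od (F := F) (chevE6, [2, 5, 6, 8, 9, 12]) (by simp) hr h (by norm_num) hd
      (fun t ht h => (hW t ht h).trans (by norm_num)) (by decide) P
  · exact cyc_of_od (F := F) (chevE6, [2, 5, 6, 8, 9, 12]) (by simp) hr h (by norm_num) hd
      (fun t ht h => (hW t ht h).trans (by norm_num)) (by decide) P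
  · exact cyc_of_od (F := F) (chevE6, [2, 5, 6, 8, 9, 12]) (by simp) hr h (by norm_num) hd
      (fun t ht h => (hW t ht h).trans (by norm_num)) (by decide) P

theorem na_E6 {F : Type u} [Field F] [Finite F] : NA ↥(chevE6.group F) := by
  intro p hp h5 hd hnc
  obtain ⟨P⟩ : Nonempty (Sylow p ↥(chevE6.group F)) := inferInstance
  rcases adj_E6 F hp hd with h | h | h
  · omega
  · exact exists_of_adj h
  · exact absurd (cyc_E6 hp hd h P) (hnc P)

/-- `E₇(q)` -/
theorem cyc_E7 {F : Type u} [Field F] [Finite F] {r : ℕ} (hr : r.Prime) (hd : r ∣ Nat.card ↥(chevE7.group F))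
    (h : od (Nat.card F) r = 7 ∨ od (Nat.card F) r = 9 ∨ od (Nat.card F) r = 12 ∨ od (Nat.card F) r = 14 ∨
      od (Nat.card F) r = 18) (P : Sylow r ↥(chevE7.group F)) : IsCyclic ↥P := by
  have hW : ∀ t : ℕ, t.Prime → t ∣ (2 * (6 * (8 * (10 * (12 * (14 * (18 * 1))))))) → t ≤ 7 := by
    intro t ht h
    simp only [ht.dvd_mul] at h
    rcases h with h | h | h | h | h | h | h | h
    · exact (Nat.le_of_dvd (by norm_num) h).trans (by norm_num)
    · exact Nat.le_of_dvd (by norm_num) h |>.trans (by norm_num)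
    · exact (Nat.le_of_dvd (by norm_num) (ht.dvd_of_dvd_pow (show t ∣ 2 ^ 3 from h))).trans (by norm_num)
    · have := (ht.dvd_mul (m := 2) (n := 5)).1 (by simpa using h)
      rcases this with h | h <;> exact (Nat.le_of_dvd (by norm_num) h).trans (by norm_num)
    · have := (ht.dvd_mul (m := 4) (n := 3)).1 (by simpa using h)
      rcases this with h | h <;> exact (Nat.le_of_dvd (by norm_num) h).trans (by norm_num)
    · have := (ht.dvd_mul (m := 2) (n := 7)).1 (by simpa using h)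
      rcases this with h | h <;> exact (Nat.le_of_dvd (by norm_num) h).trans (by norm_num)
    · have := (ht.dvd_mul (m := 2) (n := 9)).1 (by simpa using h)
      rcases this with h | h
      · exact (Nat.le_of_dvd (by norm_num) h).trans (by norm_num)
      · exact (Nat.le_of_dvd (by norm_num) (ht.dvd_of_dvd_pow (show t ∣ 3 ^ 2 from h))).trans (by norm_num)
    · exact absurd (Nat.dvd_one.1 h) ht.one_lt.ne'
  have key : ∀ m : ℕ, od (Nat.card F) r = m → 7 ≤ m → ([2, 6, 8, 10, 12, 14, 18].filter (fun e => m ∣ e)).length = 1 →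
      IsCyclic ↥P := by
    intro m h h7 h1
    exact cyc_of_od (F := F) (chevE7, [2, 6, 8, 10, 12, 14, 18]) (by simp) hr h (by omega) hd
      (fun t ht h => (hW t ht h).trans h7) h1 P
  rcases h with h | h | h | h | h
  · exact key 7 h (by norm_num) (by decide)
  · exact key 9 h (by norm_num) (by decide)
  · exact key 12 h (by norm_num) (by decide)
  · exact key 14 h (by norm_num) (by decide)
  · exact key 18 h (by norm_num) (by decide)

theorem na_E7 {F : Type u} [Field F] [Finite F] : NA ↥(chevE7.group F) := by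
  intro p hp h5 hd hnc
  obtain ⟨P⟩ : Nonempty (Sylow p ↥(chevE7.group F)) := inferInstance
  rcases adj_E7 F hp hd with h | h | h
  · omega
  · exact exists_of_adj h
  · exact absurd (cyc_E7 hp hd h P) (hnc P)

end Cfsg.Agent.H75.Cyc
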